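import Mathlib
import Cfsg.Agent.S0111
import Cfsg.Agent.S4309
import Cfsg.Agent.Lib.Basic.JordanCover

/-!
# No conjugacy class size divisible by `4`

Modulo Feit-Thompson, a finite group in which `4` divides no class size is solvable.

In a simple group of even order take an involution `a` in a Sylow `2`-subgroup `P`. Each `y` has a conjugate
centralizing a subgroup `Q` of index at most `2` in `P`. Either `a ∈ Q`, or the Thompson transfer lemma gives a
conjugate of `a` in `Q`. So every element has a conjugate in `C(a)`, and Jordan's lemma makes `a` central.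
-/

set_option autoImplicit false
set_option linter.style.haveILetI false
set_option linter.unusedSectionVars false

namespace Cfsg.Agent.Lib.FTCons.ClassFour

open Subgroup

universe u

section Sylow

variable {G : Type u} [Group G] [Finite G]

/-- If `4` does not divide the class size of `y`, some conjugate of `y` is centralized by a subgroup of `P` of
index at most `2`. -/
theorem exists_conj_le_sylow (P : Sylow 2 G) (y : G)
    (hy : ¬ 4 ∣ (centralizer ({y} : Set G)).index) :
    ∃ x : G, ∃ Q : Subgroup G, Q ≤ (P : Subgroup G) ∧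
      (Q = (P : Subgroup G) ∨ Q.relIndex (P : Subgroup G) = 2) ∧
      ∀ z ∈ Q, z * (x * y * x⁻¹) = (x * y * x⁻¹) * z := by
  classical
  set C : Subgroup G := centralizer ({y} : Set G) with hC
  haveI : Fact (Nat.Prime 2) := ⟨Nat.prime_two⟩
  obtain ⟨R⟩ : Nonempty (Sylow 2 C) := inferInstance
  -- `R` as a subgroup of `G`
  set R' : Subgroup G := (R : Subgroup C).map C.subtype with hR'
  have hR'p : IsPGroup 2 R' := R.2.map C.subtype
  obtain ⟨T, hT⟩ := hR'p.exists_le_sylow
  obtain ⟨g, hg⟩ := MulAction.exists_smul_eq G T P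
  set Q : Subgroup G := R'.map (MulAut.conj g).toMonoidHom with hQ
  have hQP : Q ≤ (P : Subgroup G) := by
    rw [← hg]
    rintro _ ⟨r, hr, rfl⟩
    rw [Sylow.coe_subgroup_smul]
    exact Subgroup.smul_mem_pointwise_smul _ _ _ (hT hr)
  have hcardQ : Nat.card Q = Nat.card (R : Subgroup C) := by
    rw [hQ, hR']
    rw [Nat.card_congr (Subgroup.equivMapOfInjective _ _ (MulAut.conj g).injective).symm.toEquiv]
    exact Nat.card_congr (Subgroup.equivMapOfInjective _ _ C.subtype_injective).symm.toEquiv
  have hcom : ∀ z ∈ Q, z * (g * y * g⁻¹) = (g * y * g⁻¹) * z := by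
    rintro _ ⟨_, ⟨r, hr, rfl⟩, rfl⟩
    have h1 : (r : G) ∈ centralizer ({y} : Set G) := r.2
    rw [Subgroup.mem_centralizer_singleton_iff] at h1
    simp only [MulEquiv.coe_toMonoidHom, MulAut.conj_apply, Subgroup.subtype_apply]
    calc g * (r : G) * g⁻¹ * (g * y * g⁻¹) = g * ((r : G) * y) * g⁻¹ := by group
      _ = g * (y * (r : G)) * g⁻¹ := by rw [h1]
      _ = _ := by group
  refine ⟨g, Q, hQP, ?_, hcom⟩
  -- orders
  have hcP : Nat.card (P : Subgroup G) = 2 ^ (Nat.card G).factorization 2 := P.card_eq_multiplicity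
  have hcR : Nat.card (R : Subgroup C) = 2 ^ (Nat.card C).factorization 2 := R.card_eq_multiplicity
  have hG : Nat.card G = Nat.card C * C.index := (Subgroup.card_mul_index C).symm
  have hf : (Nat.card G).factorization 2 ≤ (Nat.card C).factorization 2 + 1 := by
    rw [hG, Nat.factorization_mul Nat.card_pos.ne' (Subgroup.index_ne_zero_of_finite)]
    have h4 : (C.index).factorization 2 ≤ 1 := by
      by_contra hcon
      apply hy
      have : 2 ^ 2 ∣ C.index :=
        (Nat.Prime.pow_dvd_iff_le_factorization Nat.prime_two Subgroup.index_ne_zero_of_finite).2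
          (by omega)
      simpa using this
    simpa using h4
  have hdiv : Nat.card Q * Q.relIndex (P : Subgroup G) = Nat.card (P : Subgroup G) :=
    Cfsg.Agent.S4309.aux_card hQP
  rw [hcardQ, hcR, hcP] at hdiv
  set a := (Nat.card C).factorization 2 with ha
  set b := (Nat.card G).factorization 2 with hb
  have hab : 2 ^ b ∣ 2 ^ (a + 1) := pow_dvd_pow 2 hf
  have hr : Q.relIndex (P : Subgroup G) ∣ 2 := by
    have h1 : 2 ^ a * Q.relIndex (P : Subgroup G) ∣ 2 ^ a * 2 := by
      rw [hdiv, ← pow_succ]
      exact hab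
    exact Nat.dvd_of_mul_dvd_mul_left (by positivity) h1
  rcases (Nat.dvd_prime Nat.prime_two).1 hr with h | h
  · left
    exact le_antisymm hQP (Subgroup.relIndex_eq_one.1 h)
  · right
    exact h

end Sylow

section Simple

variable {G : Type u} [Group G] [Finite G]

/-- The simple case. -/
theorem simple_even_false [IsSimpleGroup G] (hna : ¬ ∀ a b : G, a * b = b * a)
    (h : ∀ x : G, ¬ 4 ∣ (centralizer ({x} : Set G)).index) (heven : 2 ∣ Nat.card G) : False := by
  classical
  haveI : Fact (Nat.Prime 2) := ⟨Nat.prime_two⟩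
  obtain ⟨a, ha⟩ := exists_prime_orderOf_dvd_card' (G := G) 2 heven
  -- a Sylow `2`-subgroup containing `a`
  have hap : IsPGroup 2 (zpowers a) := by
    apply IsPGroup.of_card (n := 1)
    rw [Nat.card_zpowers, ha, pow_one]
  obtain ⟨P, hP⟩ := hap.exists_le_sylow
  have haP : a ∈ (P : Subgroup G) := hP (mem_zpowers a)
  have hcover : ∀ y : G, ∃ x : G, x * y * x⁻¹ ∈ centralizer ({a} : Set G) := by
    intro y
    obtain ⟨x, Q, hQP, hQ, hcom⟩ := exists_conj_le_sylow P y (h y)
    -- an element of `Q` conjugate to `a`
    have key : ∃ g : G, g * a * g⁻¹ ∈ Q := by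
      by_cases haQ : a ∈ Q
      · exact ⟨1, by simpa using haQ⟩
      rcases hQ with hQ | hQ
      · exact absurd (hQ ▸ haP) haQ
      rcases Cfsg.Agent.S0111.result P Q hQP hQ a ha haP haQ with ⟨M, hMn, hMi, -⟩ | h1
      · exfalso
        rcases hMn.eq_bot_or_eq_top with hb | ht
        · subst hb
          rw [Subgroup.index_bot] at hMi
          haveI : Fact (Nat.card G).Prime := ⟨by rw [hMi]; exact Nat.prime_two⟩
          have hc : IsCyclic G := isCyclic_of_prime_card rfl
          apply hna
          intro u v
          obtain ⟨w, hw⟩ := hc.exists_generator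
          obtain ⟨i, rfl⟩ := Subgroup.mem_zpowers_iff.1 (hw u)
          obtain ⟨j, rfl⟩ := Subgroup.mem_zpowers_iff.1 (hw v)
          rw [← zpow_add, ← zpow_add, add_comm]
        · subst ht
          simp at hMi
      · exact h1
    obtain ⟨g, hg⟩ := key
    refine ⟨g⁻¹ * x, ?_⟩
    have h2 := hcom _ hg
    rw [Subgroup.mem_centralizer_singleton_iff]
    -- `g a g⁻¹` commutes with `x y x⁻¹`
    have e : a * ((g⁻¹ * x) * y * (g⁻¹ * x)⁻¹) = g⁻¹ * ((g * a * g⁻¹) * (x * y * x⁻¹)) * g := by group
    have e' : ((g⁻¹ * x) * y * (g⁻¹ * x)⁻¹) * a = g⁻¹ * ((x * y * x⁻¹) * (g * a * g⁻¹)) * g := by group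
    rw [e', e, h2]
  have htop := Cfsg.Agent.Lib.Basic.JordanCover.eq_top_of_forall_conj_mem _ hcover
  -- `a` is central, hence the centre is everything
  have hcen : a ∈ center G := by
    rw [Subgroup.mem_center_iff]
    intro g
    have : g ∈ centralizer ({a} : Set G) := by rw [htop]; trivial
    rwa [Subgroup.mem_centralizer_singleton_iff] at this
  have hne : a ≠ 1 := by
    rintro rfl
    simp at ha
  rcases (inferInstance : (center G).Normal).eq_bot_or_eq_top with hb | ht
  · rw [hb] at hcen
    exact hne (by simpa using hcen)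
  · apply hna
    intro u v
    have : u ∈ center G := by rw [ht]; trivial
    exact (Subgroup.mem_center_iff.1 this v).symm

/-- Normal subgroups inherit the hypothesis. -/
theorem not_dvd_normal (N : Subgroup G) [N.Normal]
    (h : ∀ x : G, ¬ 4 ∣ (centralizer ({x} : Set G)).index) (x : N) :
    ¬ 4 ∣ (centralizer ({x} : Set N)).index := by
  intro hd
  apply h (x : G)
  have e : centralizer ({x} : Set N) = (centralizer ({(x : G)} : Set G)).subgroupOf N := by
    ext z
    rw [Subgroup.mem_subgroupOf, Subgroup.mem_centralizer_singleton_iff,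
      Subgroup.mem_centralizer_singleton_iff, Subtype.ext_iff]
    simp
  rw [e] at hd
  change 4 ∣ (centralizer ({(x : G)} : Set G)).relIndex N at hd
  rw [Cfsg.Agent.S4309.aux_relIndex] at hd
  exact hd.trans (Subgroup.relIndex_dvd_index_of_le le_sup_left)

/-- Quotients inherit the hypothesis. -/
theorem not_dvd_quotient (N : Subgroup G) [N.Normal]
    (h : ∀ x : G, ¬ 4 ∣ (centralizer ({x} : Set G)).index) (x : G ⧸ N) :
    ¬ 4 ∣ (centralizer ({x} : Set (G ⧸ N))).index := by
  intro hd
  obtain ⟨y, rfl⟩ := QuotientGroup.mk_surjective x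
  apply h y
  have hle : (centralizer ({y} : Set G)).map (QuotientGroup.mk' N) ≤
      centralizer ({(y : G ⧸ N)} : Set (G ⧸ N)) := by
    rintro _ ⟨z, hz, rfl⟩
    rw [SetLike.mem_coe, Subgroup.mem_centralizer_singleton_iff] at hz
    rw [Subgroup.mem_centralizer_singleton_iff]
    show (z : G ⧸ N) * y = y * z
    rw [← QuotientGroup.mk_mul, hz, QuotientGroup.mk_mul]
  have h1 := Subgroup.index_dvd_of_le hle
  have h2 := Subgroup.index_map_dvd (centralizer ({y} : Set G)) (QuotientGroup.mk'_surjective N)
  exact hd.trans (h1.trans h2)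

end Simple

/-- Modulo Feit-Thompson: a finite group in which `4` divides no class size is solvable. -/
theorem solvable_of_ft
    (hFT : ∀ (K : Type u) [Group K] [Finite K], Odd (Nat.card K) → Group.IsSolvable K) :
    ∀ (n : ℕ) (G : Type u) [Group G] [Finite G], Nat.card G = n →
      (∀ x : G, ¬ 4 ∣ (centralizer ({x} : Set G)).index) → Group.IsSolvable G := by
  intro n
  induction n using Nat.strong_induction_on with
  | _ n IH =>
    intro G _ _ hn h
    by_cases hsimple : ∃ N : Subgroup G, N.Normal ∧ N ≠ ⊥ ∧ N ≠ ⊤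
    · obtain ⟨N, hNn, hb, ht⟩ := hsimple
      haveI := hNn
      have hcard : Nat.card G = Nat.card N * N.index := (Subgroup.card_mul_index N).symm
      have h1 : 1 < N.index := by
        have : N.index ≠ 1 := fun h1 => ht (Subgroup.index_eq_one.1 h1)
        have h0 : N.index ≠ 0 := Subgroup.index_ne_zero_of_finite
        omega
      have h2 : 1 < Nat.card N := by
        have : Nat.card N ≠ 1 := fun h1 => hb (Subgroup.card_eq_one.1 h1)
        have h0 : Nat.card N ≠ 0 := Nat.card_pos.ne'
        omega
      have hlt1 : Nat.card N < n := by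
        rw [← hn, hcard]
        exact lt_mul_of_one_lt_right Nat.card_pos h1
      have hlt2 : Nat.card (G ⧸ N) < n := by
        rw [← hn, hcard, ← Subgroup.index_eq_card]
        exact lt_mul_of_one_lt_left (Nat.card_pos (α := G ⧸ N) |> fun h => by
          rw [Subgroup.index_eq_card]; exact h) h2
      haveI := IH _ hlt1 N rfl (not_dvd_normal N h)
      haveI := IH _ hlt2 (G ⧸ N) rfl (not_dvd_quotient N h)
      refine Group.isSolvable_of_ker_le_range N.subtype (QuotientGroup.mk' N) ?_
      rw [QuotientGroup.ker_mk', Subgroup.range_subtype]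
    · push Not at hsimple
      by_cases htriv : Subsingleton G
      · infer_instance
      haveI : Nontrivial G := not_subsingleton_iff_nontrivial.1 htriv
      haveI : IsSimpleGroup G := ⟨fun N hN => by
        by_cases hb : N = ⊥
        · exact Or.inl hb
        · exact Or.inr (hsimple N hN hb)⟩
      by_cases hcomm : ∀ a b : G, a * b = b * a
      · exact Group.isSolvable_of_comm hcomm
      by_cases heven : 2 ∣ Nat.card G
      · exact (simple_even_false hcomm h heven).elim
      · exact hFT G (Nat.odd_iff.2 (by omega))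

end Cfsg.Agent.Lib.FTCons.ClassFour
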